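import Cfsg.Agent.H271.PU.RowB
import Cfsg.Agent.H58.McLOdd

/-!
# S3046, case B: the row `McL` at `p = 3` (helper538)

`rowB_star`: the criterion for `Q ≤ C(z)` of order `3 ^ 5` with an element of order five acting fixed point freely on `Q / ⟨z⟩`.
-/

set_option autoImplicit false
set_option maxRecDepth 100000

namespace Cfsg.Agent.H538.PU

open Subgroup Cfsg Cfsg.Agent.H271.PU
open scoped commutatorElement

/-- an element `t` with `t ^ r = 1` normalising `B`: `|B| ≡ |C_B(t)|` mod `r` -/
theorem card_modEq_fix {G : Type*} [Group G] [Finite G] {r : ℕ} (hr : r.Prime) {t : G} (ht : t ^ r = 1) {B : Subgroup G}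
    (hB : ∀ x ∈ B, t * x * t⁻¹ ∈ B) :
    Nat.card B ≡ Nat.card (B ⊓ centralizer ({t} : Set G) : Subgroup G) [MOD r] := by
  have : Fact r.Prime := ⟨hr⟩
  have hC : IsPGroup r ↥(zpowers t) := by
    have h1 : Nat.card (zpowers t) ∣ r := by
      rw [Nat.card_zpowers]
      exact orderOf_dvd_of_pow_eq_one ht
    rcases (Nat.dvd_prime hr).1 h1 with h | h
    · exact IsPGroup.of_card (n := 0) (by rw [h, pow_zero])
    · exact IsPGroup.of_card (n := 1) (by rw [h, pow_one])
  have hN : zpowers t ≤ normalizer (B : Set G) := by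
    rw [zpowers_le]
    have h1 : ∀ n : ℕ, ∀ x ∈ B, t ^ n * x * (t ^ n)⁻¹ ∈ B := by
      intro n
      induction n with
      | zero => intro x hx; simpa using hx
      | succ n ih =>
        intro x hx
        have e : t ^ (n + 1) * x * (t ^ (n + 1))⁻¹ = t ^ n * (t * x * t⁻¹) * (t ^ n)⁻¹ := by
          rw [pow_succ, mul_inv_rev]
          group
        rw [e]
        exact ih _ (hB x hx)
    rw [mem_normalizer_iff]
    intro x
    refine ⟨hB x, fun hx => ?_⟩
    have hr0 : r - 1 + 1 = r := Nat.sub_add_cancel hr.pos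
    have e1 : t ^ (r - 1) = t⁻¹ := by
      rw [eq_inv_iff_mul_eq_one, ← pow_succ, hr0, ht]
    have h2 := h1 (r - 1) _ hx
    rw [e1] at h2
    have e2 : t⁻¹ * (t * x * t⁻¹) * t⁻¹⁻¹ = x := by group
    rwa [e2] at h2
  let act : MulAction ↥(zpowers t) ↥B :=
    { smul := fun g v => ⟨(g : G) * v * (g : G)⁻¹, (mem_normalizer_iff.1 (hN g.2) v).1 v.2⟩
      one_smul := fun v => Subtype.ext (by
        change (1 : G) * v * (1 : G)⁻¹ = v
        group)
      mul_smul := fun a b v => Subtype.ext (by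
        change ((a : G) * b) * v * ((a : G) * b)⁻¹ = (a : G) * ((b : G) * v * (b : G)⁻¹) * (a : G)⁻¹
        group) }
  have hmod := hC.card_modEq_card_fixedPoints ↥B
  have hWc : Nat.card (MulAction.fixedPoints ↥(zpowers t) ↥B) = Nat.card (B ⊓ centralizer ({t} : Set G) : Subgroup G) := by
    refine Nat.card_congr ⟨fun v => ⟨((v : ↥B) : G), Subgroup.mem_inf.2 ⟨(v : ↥B).2, ?_⟩⟩, fun v => ⟨⟨v, v.2.1⟩, ?_⟩,
      fun v => rfl, fun v => rfl⟩
    · rw [mem_centralizer_singleton_iff]
      have h1 := congrArg Subtype.val (v.2 ⟨t, mem_zpowers t⟩)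
      change t * ((v : ↥B) : G) * t⁻¹ = ((v : ↥B) : G) at h1
      rw [mul_inv_eq_iff_eq_mul] at h1
      exact h1.symm
    · rintro ⟨g, hg⟩
      apply Subtype.ext
      change g * (v : G) * g⁻¹ = v
      have h1 : zpowers t ≤ centralizer ({(v : G)} : Set G) := by
        rw [zpowers_le, mem_centralizer_singleton_iff]
        exact ((mem_centralizer_singleton_iff.1 v.2.2)).symm
      have h2 := mem_centralizer_singleton_iff.1 (h1 hg)
      rw [h2, mul_inv_cancel_right]
  rwa [hWc] at hmod

/-- **The criterion** -/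
theorem rowB_star {G : Type*} [Group G] [Finite G] {T : Sylow 3 G} {Q : Subgroup G} {z u t a b : G}
    (hz : orderOf z = 3) (hzQ : z ∈ Q) (hQT : Q ≤ T) (hTz : (T : Subgroup G) ≤ centralizer ({z} : Set G))
    (hQ : Nat.card Q = 3 ^ 5) (hT : Nat.card T = 3 ^ 6) (hu : u ∈ (T : Subgroup G)) (ht : t ^ 5 = 1) (htz : t * z = z * t)
    (htQ : ∀ x ∈ Q, t * x * t⁻¹ ∈ Q) (ha : a ∈ Q) (hta : t * a ≠ a * t) (hb : b ∈ Q) (hab : a * b ≠ b * a)
    (haQ : ∀ x ∈ Q, ⁅x, a⁆ ∈ zpowers z) (hua : ⁅u, a⁆ * a ≠ a * ⁅u, a⁆) : RowB 3 G := by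
  have : Fact (Nat.Prime 3) := ⟨Nat.prime_three⟩
  have hQp : IsPGroup 3 ↥Q := T.isPGroup'.to_le hQT
  -- the orders of the subgroups of `T`
  have hpow : ∀ {X : Subgroup G}, X ≤ (T : Subgroup G) → ∃ k ≤ 6, Nat.card X = 3 ^ k := by
    intro X hX
    have h1 : Nat.card X ∣ 3 ^ 6 := by
      rw [← hT]
      exact Subgroup.card_dvd_of_le hX
    exact (Nat.dvd_prime_pow Nat.prime_three).1 h1
  -- the centralizer of `t` in `Q`
  have hCQ : Q ⊓ centralizer ({t} : Set G) = zpowers z := by
    have hle : zpowers z ≤ Q ⊓ centralizer ({t} : Set G) := by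
      rw [zpowers_le]
      exact Subgroup.mem_inf.2 ⟨hzQ, mem_centralizer_singleton_iff.2 htz.symm⟩
    symm
    apply Subgroup.eq_of_le_of_card_ge hle
    rw [Nat.card_zpowers, hz]
    obtain ⟨k, hk, hk'⟩ := hpow ((inf_le_left : Q ⊓ centralizer ({t} : Set G) ≤ Q).trans hQT)
    have hmod := card_modEq_fix Nat.prime_five ht htQ
    rw [hk', hQ] at hmod
    have hk5 : k ≠ 5 := by
      rintro rfl
      apply hta
      have h1 : Q ⊓ centralizer ({t} : Set G) = Q :=
        Subgroup.eq_of_le_of_card_ge inf_le_left (by rw [hQ, hk'])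
      have h2 : a ∈ Q ⊓ centralizer ({t} : Set G) := by rw [h1]; exact ha
      exact (mem_centralizer_singleton_iff.1 h2.2).symm
    have hk6 : k ≤ 5 := by
      have h1 : Nat.card (Q ⊓ centralizer ({t} : Set G) : Subgroup G) ≤ Nat.card Q := Subgroup.card_le_of_le inf_le_left
      rw [hk', hQ] at h1
      exact (Nat.pow_le_pow_iff_right (by norm_num)).1 h1
    rw [hk']
    interval_cases k <;> simp_all [Nat.ModEq]
  -- the proper subgroups of `Q` containing `z`, invariant under `t`
  have hinv : ∀ B : Subgroup G, B ≤ Q → z ∈ B → (∀ x ∈ B, t * x * t⁻¹ ∈ B) → B ≠ Q → B = zpowers z := by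
    intro B hBQ hzB htB hBne
    have hmod := card_modEq_fix Nat.prime_five ht htB
    obtain ⟨k, hk, hk'⟩ := hpow (hBQ.trans hQT)
    have hk5 : k < 5 := by
      by_contra hcon
      apply hBne
      apply Subgroup.eq_of_le_of_card_ge hBQ
      rw [hQ, hk']
      exact Nat.pow_le_pow_right (by norm_num) (by omega)
    have h3 : B ⊓ centralizer ({t} : Set G) = zpowers z := by
      apply le_antisymm
      · rw [← hCQ]
        exact inf_le_inf_right _ hBQ
      · rw [zpowers_le]
        exact Subgroup.mem_inf.2 ⟨hzB, mem_centralizer_singleton_iff.2 htz.symm⟩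
    rw [h3, Nat.card_zpowers, hz, hk'] at hmod
    symm
    apply Subgroup.eq_of_le_of_card_ge ((zpowers_le).2 hzB)
    rw [Nat.card_zpowers, hz, hk']
    interval_cases k <;> simp_all [Nat.ModEq]
  refine rowB_of_center (T := T) (z₀ := z) ?_ hz ?_
  · -- the centre
    intro y hy hyc _
    by_cases hyQ : y ∈ Q
    · -- the centre of `Q`
      have h1 : Q ⊓ centralizer (Q : Set G) = zpowers z := by
        apply hinv _ inf_le_left
        · refine Subgroup.mem_inf.2 ⟨hzQ, ?_⟩
          rw [mem_centralizer_iff]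
          intro x hx
          exact (mem_centralizer_singleton_iff.1 (hTz (hQT hx)))
        · rintro x ⟨hx1, hx2⟩
          refine Subgroup.mem_inf.2 ⟨htQ x hx1, ?_⟩
          replace hx2 := mem_centralizer_iff.1 hx2
          rw [mem_centralizer_iff]
          intro q hq
          -- `t⁻¹ q t ∈ Q`
          have h5 : t⁻¹ * q * t ∈ Q := by
            have e1 : t⁻¹ = t ^ 4 := by
              rw [inv_eq_iff_mul_eq_one, ← pow_succ', ht]
            have e2 : t = (t ^ 4)⁻¹ := by
              rw [← e1, inv_inv]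
            have h6 : ∀ n : ℕ, t ^ n * q * (t ^ n)⁻¹ ∈ Q := by
              intro n
              induction n with
              | zero => simpa using hq
              | succ n ih =>
                have e : t ^ (n + 1) * q * (t ^ (n + 1))⁻¹ = t * (t ^ n * q * (t ^ n)⁻¹) * t⁻¹ := by
                  rw [pow_succ']
                  group
                rw [e]
                exact htQ _ ih
            have h7 := h6 4
            rw [← e1, inv_inv] at h7
            exact h7
          have h6 := hx2 _ h5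
          calc q * (t * x * t⁻¹) = t * ((t⁻¹ * q * t) * x) * t⁻¹ := by group
            _ = t * (x * (t⁻¹ * q * t)) * t⁻¹ := by rw [h6]
            _ = t * x * t⁻¹ * q := by group
        · intro h2
          apply hab
          have h3 : b ∈ Q ⊓ centralizer (Q : Set G) := by rw [h2]; exact hb
          exact (mem_centralizer_iff.1 h3.2) a ha
      rw [← h1]
      refine Subgroup.mem_inf.2 ⟨hyQ, ?_⟩
      rw [mem_centralizer_iff]
      intro x hx
      exact hyc x (hQT hx)
    · -- `T = Q ⟨y⟩`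
      exfalso
      apply hua
      have h1 : Q ⊔ zpowers y = (T : Subgroup G) := by
        have hle : Q ⊔ zpowers y ≤ (T : Subgroup G) := sup_le hQT (zpowers_le.2 hy)
        apply Subgroup.eq_of_le_of_card_ge hle
        obtain ⟨k, hk, hk'⟩ := hpow hle
        have h2 : Nat.card Q < Nat.card (Q ⊔ zpowers y : Subgroup G) := by
          rcases lt_or_ge (Nat.card Q) (Nat.card (Q ⊔ zpowers y : Subgroup G)) with h | h
          · exact h
          · exfalso
            apply hyQ
            rw [Subgroup.eq_of_le_of_card_ge (le_sup_left : Q ≤ Q ⊔ zpowers y) h]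
            exact mem_sup_right (mem_zpowers y)
        rw [hQ, hk'] at h2
        have h3 : 5 < k := (Nat.pow_lt_pow_iff_right (by norm_num)).1 h2
        change Nat.card T ≤ _
        rw [hT, hk']
        exact Nat.pow_le_pow_right (by norm_num) (by omega)
      -- the normalizer of `⟨a, z⟩`
      have hzc : ∀ x ∈ Q, x * z = z * x := fun x hx => mem_centralizer_singleton_iff.1 (hTz (hQT hx))
      have haz : ∀ x ∈ closure ({a, z} : Set G), x * a = a * x := by
        intro x hx
        have h2 : closure ({a, z} : Set G) ≤ centralizer ({a} : Set G) := by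
          rw [closure_le]
          rintro w (rfl | rfl)
          · rw [SetLike.mem_coe, mem_centralizer_singleton_iff]
          · rw [SetLike.mem_coe, mem_centralizer_singleton_iff]
            exact (hzc a ha).symm
        exact mem_centralizer_singleton_iff.1 (h2 hx)
      have hzm : zpowers z ≤ closure ({a, z} : Set G) := by
        rw [zpowers_le]
        exact subset_closure (by simp)
      have hnorm : ∀ g : G, (∃ c ∈ zpowers z, g * a * g⁻¹ = c * a) → g * z = z * g → 
          g ∈ normalizer ((closure ({a, z} : Set G) : Subgroup G) : Set G) := by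
        rintro g ⟨c, hc, hg⟩ hgz
        have h2 : (closure ({a, z} : Set G)).map (MulAut.conj g).toMonoidHom ≤ closure ({a, z} : Set G) := by
          rw [MonoidHom.map_closure, closure_le]
          rintro _ ⟨w, (rfl | rfl), rfl⟩
          · change g * w * g⁻¹ ∈ _
            rw [hg]
            exact mul_mem (hzm hc) (subset_closure (by simp))
          · change g * w * g⁻¹ ∈ _
            rw [hgz, mul_inv_cancel_right]
            exact subset_closure (by simp)
        have h3 : (closure ({a, z} : Set G)).map (MulAut.conj g).toMonoidHom = closure ({a, z} : Set G) := by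
          apply Subgroup.eq_of_le_of_card_ge h2
          rw [Nat.card_congr ((closure ({a, z} : Set G)).equivMapOfInjective _ (MulAut.conj g).injective).symm.toEquiv]
        rw [mem_normalizer_iff]
        intro x
        constructor
        · intro hx
          rw [← h3]
          exact ⟨x, hx, rfl⟩
        · intro hx
          rw [← h3] at hx
          obtain ⟨x', hx', he⟩ := hx
          have : x' = x := (MulAut.conj g).injective he
          rw [← this]
          exact hx'
      have hN : (T : Subgroup G) ≤ normalizer ((closure ({a, z} : Set G) : Subgroup G) : Set G) := by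
        rw [← h1]
        refine sup_le ?_ ?_
        · intro x hx
          refine hnorm x ⟨⁅x, a⁆, haQ x hx, ?_⟩ (hzc x hx)
          rw [commutatorElement_def]
          group
        · rw [zpowers_le]
          refine hnorm y ⟨1, one_mem _, ?_⟩ (hyc z (hQT hzQ)).symm
          rw [one_mul, ← hyc a (hQT ha), mul_inv_cancel_right]
      have h2 : ⁅u, a⁆ ∈ closure ({a, z} : Set G) := by
        have h3 := (mem_normalizer_iff.1 (hN hu) a).1 (subset_closure (by simp))
        have e : ⁅u, a⁆ = u * a * u⁻¹ * a⁻¹ := commutatorElement_def u a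
        rw [e]
        exact mul_mem h3 (inv_mem (subset_closure (by simp)))
      exact haz _ h2
  · -- no `A`
    intro A hA hzA hAc hN hcard
    exfalso
    have hAT : A ≤ (T : Subgroup G) := by
      have h1 : IsPGroup 3 ↥A := by
        intro x
        refine ⟨1, Subtype.ext ?_⟩
        rw [pow_one]
        exact hA.2 _ x.2
      have h3 : IsPGroup 3 ↥((T : Subgroup G) ⊔ A : Subgroup G) := by
        rw [sup_comm]
        exact H229.isPGroup_sup_of_norm h1 T.isPGroup' (hTz.trans hN)
      have h4 := T.is_maximal' h3 le_sup_left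
      rw [← h4]
      exact le_sup_right
    have hB : A ⊓ Q = zpowers z := by
      apply hinv _ inf_le_right (Subgroup.mem_inf.2 ⟨hzA, hzQ⟩)
      · rintro x ⟨hx1, hx2⟩
        refine Subgroup.mem_inf.2 ⟨?_, htQ x hx2⟩
        have h1 : t ∈ normalizer (A : Set G) := hN (by rw [mem_centralizer_singleton_iff]; exact htz)
        exact (mem_normalizer_iff.1 h1 x).1 hx1
      · intro h1
        apply hab
        have h2 : Q ≤ A := by rw [← h1]; exact inf_le_left
        exact congrArg Subtype.val (hA.1.is_comm.comm ⟨a, h2 ha⟩ ⟨b, h2 hb⟩)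
    have h1 : Q.relIndex A ≤ Q.relIndex (T : Subgroup G) := by
      apply Subgroup.relIndex_le_of_le_right hAT
      exact Subgroup.index_ne_zero_of_finite
    have h2 : Q.relIndex (T : Subgroup G) = 3 := by
      have h3 := Subgroup.card_mul_index (Q.subgroupOf (T : Subgroup G))
      rw [Nat.card_congr (subgroupOfEquivOfLe hQT).toEquiv, hQ] at h3
      change 3 ^ 5 * Q.relIndex (T : Subgroup G) = Nat.card T at h3
      rw [hT] at h3
      omega
    have h3 := Subgroup.card_mul_index ((A ⊓ Q).subgroupOf A)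
    rw [Nat.card_congr (subgroupOfEquivOfLe (inf_le_left : A ⊓ Q ≤ A)).toEquiv] at h3
    change Nat.card (A ⊓ Q : Subgroup G) * (A ⊓ Q).relIndex A = Nat.card A at h3
    rw [inf_relIndex_left, hB, Nat.card_zpowers, hz] at h3
    rw [← h3] at hcard
    omega


section McL

open Cfsg.Agent.SporadicStructure.PermChain Cfsg.Agent.McLType.X275 Cfsg.Agent.McLType.Gens Cfsg.Agent.McLType.Model
open Cfsg.Agent.H58.McLOdd Cfsg.Agent.H58.PChain

theorem rowB_G1 : RowB 3 G1 := by
  have hq1 := c31
  have hq2 := c32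
  have hq3 := c33
  simp only [Bool.and_eq_true, Bool.not_eq_true'] at hq1 hq2 hq3
  obtain ⟨⟨⟨⟨⟨⟨⟨⟨⟨⟨h1, h2⟩, h3⟩, h4⟩, h5⟩, h6⟩, h7⟩, h8⟩, h9⟩, h10⟩, h11⟩ := hq1
  obtain ⟨⟨⟨⟨⟨⟨⟨⟨k1, k2⟩, k3⟩, k4⟩, k5⟩, k6⟩, k7⟩, k8⟩, k9⟩ := hq2
  obtain ⟨⟨⟨⟨⟨⟨⟨n1, n2⟩, n3⟩, n4⟩, n5⟩, n6⟩, n7⟩, n8⟩ := hq3
  have hjj : wd j3 * wd j3 = 1 := by rw [← wd_app]; exact eq_of_chk h1
  have ha3 : wd a0 ^ 3 = 1 := by rw [← wd_pw]; exact eq_of_chk h2
  have hja : wd j3 * wd a0 * (wd j3)⁻¹ = (wd a0)⁻¹ := by rw [← wd_cj, ← wd_iv]; exact eq_of_chk h3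
  have ht5 : wd t3 ^ 5 = 1 := by rw [← wd_pw]; exact eq_of_chk h4
  have htj := comm_of_chk h5
  have huj := comm_of_chk h6
  have hzz : ⁅wd a0, wd a1⁆ = wd z3 := by rw [← wd_cm]; exact eq_of_chk h7
  have hyy : ⁅wd a0, wd a2⁆ = 1 := by rw [← wd_cm]; exact eq_of_chk h8
  have hza := comm_of_chk h9
  have hzj := comm_of_chk h10
  have hzt := comm_of_chk h11
  have hzu := comm_of_chk k1
  have hu3 : wd u3 ^ 3 = 1 := by rw [← wd_pw]; exact eq_of_chk k2
  have hz3 : wd z3 ^ 3 = 1 := by rw [← wd_pw]; exact eq_of_chk k3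
  have hz1 : wd z3 ≠ 1 := by rw [← wd_nil']; exact ne_of_pt (by norm_num) k4
  have z1 : wd z3 * wd a1 = wd a1 * wd z3 := by
    have e : wd a1 = wd t3 * wd a0 * (wd t3)⁻¹ := wd_cj _ _
    rw [e]
    exact ((show Commute (wd z3) (wd t3) from hzt).mul_right hza).mul_right
      (show Commute (wd z3) (wd t3) from hzt).inv_right
  have z2 : wd z3 * wd a2 = wd a2 * wd z3 := by
    have e : wd a2 = wd t3 * wd a1 * (wd t3)⁻¹ := wd_cj _ _
    rw [e]
    exact ((show Commute (wd z3) (wd t3) from hzt).mul_right z1).mul_right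
      (show Commute (wd z3) (wd t3) from hzt).inv_right
  have z3' : wd z3 * wd a3 = wd a3 * wd z3 := by
    have e : wd a3 = wd t3 * wd a2 * (wd t3)⁻¹ := wd_cj _ _
    rw [e]
    exact ((show Commute (wd z3) (wd t3) from hzt).mul_right z2).mul_right
      (show Commute (wd z3) (wd t3) from hzt).inv_right
  have p1 : wd a1 ^ 3 = 1 := by
    have e : wd a1 = wd t3 * wd a0 * (wd t3)⁻¹ := wd_cj _ _
    rw [e, conj_pow, ha3, mul_one, mul_inv_cancel]
  have p2 : wd a2 ^ 3 = 1 := by
    have e : wd a2 = wd t3 * wd a1 * (wd t3)⁻¹ := wd_cj _ _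
    rw [e, conj_pow, p1, mul_one, mul_inv_cancel]
  have p3 : wd a3 ^ 3 = 1 := by
    have e : wd a3 = wd t3 * wd a2 * (wd t3)⁻¹ := wd_cj _ _
    rw [e, conj_pow, p2, mul_one, mul_inv_cancel]
  have c02 : wd a0 * wd a2 = wd a2 * wd a0 := commutatorElement_eq_one_iff_mul_comm.1 hyy
  have c12 : ⁅wd a1, wd a2⁆ = wd z3 := by rw [← wd_cm]; exact eq_of_chk n5
  have c23 : ⁅wd a2, wd a3⁆ = wd z3 := by rw [← wd_cm]; exact eq_of_chk n6
  have c03 : wd a0 * wd a3 = wd a3 * wd a0 := comm_of_chk n7
  have c13 : wd a1 * wd a3 = wd a3 * wd a1 := comm_of_chk n8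
  have m01 : wd a0 * wd a1 ≠ wd a1 * wd a0 := by rw [← wd_app, ← wd_app]; exact ne_of_pt (by norm_num) n1
  have m23 : wd a2 * wd a3 ≠ wd a3 * wd a2 := by rw [← wd_app, ← wd_app]; exact ne_of_pt (by norm_num) n2
  have m3v : wd a3 * (wd a0 * wd a2) ≠ (wd a0 * wd a2) * wd a3 := by
    rw [← wd_app a0 a2, ← wd_app, ← wd_app]; exact ne_of_pt (by norm_num) n3
  have muc : ⁅wd u3, wd a0⁆ * wd a0 ≠ wd a0 * ⁅wd u3, wd a0⁆ := by
    rw [← wd_cm, ← wd_app, ← wd_app]; exact ne_of_pt (by norm_num) n4
  -- the conjugates by `u`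
  have u0 : wd u3 * wd a0 * (wd u3)⁻¹ = wd a1 * wd a1 * wd a2 * wd a2 * wd a3 := by
    rw [← wd_cj, eq_of_chk k5]; simp only [wd_app, mul_assoc]
  have u1 : wd u3 * wd a1 * (wd u3)⁻¹ = wd a0 * wd a0 * wd a1 * wd a2 := by
    rw [← wd_cj, eq_of_chk k6]; simp only [wd_app, mul_assoc]
  have u2 : wd u3 * wd a2 * (wd u3)⁻¹ = wd a0 * wd a0 * wd a1 * wd a1 * wd a3 * wd z3 := by
    rw [← wd_cj, eq_of_chk k7]; simp only [wd_app, mul_assoc]
  have u3' : wd u3 * wd a3 * (wd u3)⁻¹ = wd a1 * wd a2 * wd a2 * wd z3 * wd z3 := by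
    rw [← wd_cj, eq_of_chk k8]; simp only [wd_app, mul_assoc]
  have ua4 : wd a4 = wd a0 * wd a0 * wd a1 * wd a1 * wd a2 * wd a2 * wd a3 * wd a3 := by
    rw [eq_of_chk k9]; simp only [wd_app, mul_assoc]
  -- membership in a subgroup containing `a_0, ..., a_3, z`
  have hgen : ∀ K : Subgroup G1, wd a0 ∈ K → wd a1 ∈ K → wd a2 ∈ K → wd a3 ∈ K → wd z3 ∈ K →
      (wd u3 * wd a0 * (wd u3)⁻¹ ∈ K ∧ wd u3 * wd a1 * (wd u3)⁻¹ ∈ K ∧ wd u3 * wd a2 * (wd u3)⁻¹ ∈ K ∧
        wd u3 * wd a3 * (wd u3)⁻¹ ∈ K ∧ wd u3 * wd z3 * (wd u3)⁻¹ ∈ K) := by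
    intro K g0 g1 g2 g3 g4
    refine ⟨?_, ?_, ?_, ?_, ?_⟩
    · rw [u0]; repeat' first | assumption | apply mul_mem
    · rw [u1]; repeat' first | assumption | apply mul_mem
    · rw [u2]; repeat' first | assumption | apply mul_mem
    · rw [u3']; repeat' first | assumption | apply mul_mem
    · rw [← hzu, mul_inv_cancel_right]; exact g4
  -- orders
  have s0 := base (p := 3) (by norm_num) hz3 hz1
  have s1 := step_comm (b := wd a0) (c := wd a1) (by norm_num) s0
    (by rintro x rfl; exact conj_mem_of_comm rfl hza.symm) ha3 (by rintro x rfl; exact z1) m01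
  have s2 := step_comm (b := wd a2) (c := wd a3) (by norm_num) s1
    (by
      rintro x (rfl | rfl)
      · exact conj_mem_of_comm (by simp) c02.symm
      · exact conj_mem_of_comm (by simp) z2.symm) p2
    (by
      rintro x (rfl | rfl)
      · exact c03
      · exact z3') m23
  have s3 := step_comm (b := wd a1) (c := wd a0) (by norm_num) s2
    (by
      rintro x (rfl | rfl | rfl)
      · exact conj_mem_of_comm' (by simp) (subset_closure (by simp)) c12
      · refine conj_mem_of_comm' (c := (wd z3)⁻¹) (by simp) (inv_mem (subset_closure (by simp))) ?_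
        rw [← hzz, commutatorElement_inv]
      · exact conj_mem_of_comm (by simp) z1.symm) p1
    (by
      rintro x (rfl | rfl | rfl)
      · exact c02.symm
      · rfl
      · exact hza) m01.symm
  have s4 := step_comm (b := wd a3) (c := wd a0 * wd a2) (by norm_num) s3
    (by
      rintro x (rfl | rfl | rfl | rfl)
      · exact conj_mem_of_comm (by simp) c13.symm
      · refine conj_mem_of_comm' (c := (wd z3)⁻¹) (by simp) (inv_mem (subset_closure (by simp))) ?_
        rw [← c23, commutatorElement_inv]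
      · exact conj_mem_of_comm (by simp) c03.symm
      · exact conj_mem_of_comm (by simp) z3'.symm) p3
    (by
      have e10 : wd a1 * (wd a0 * wd a2) = (wd a0 * wd a2) * wd a1 := by
        have f1 : wd a0 * wd a1 = wd z3 * (wd a1 * wd a0) := by rw [← hzz, commutatorElement_def]; group
        have f2 : wd a1 * wd a2 = wd z3 * (wd a2 * wd a1) := by rw [← c12, commutatorElement_def]; group
        have f3 : (wd a0 * wd a2) * wd a1 = wd a0 * ((wd z3)⁻¹ * (wd a1 * wd a2)) := by rw [f2]; group
        have f4 : wd a0 * (wd z3)⁻¹ = (wd z3)⁻¹ * wd a0 := ((show Commute (wd z3) (wd a0) from hza).inv_left).symm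
        calc wd a1 * (wd a0 * wd a2) = (wd z3)⁻¹ * (wd z3 * (wd a1 * wd a0)) * wd a2 := by group
          _ = (wd z3)⁻¹ * (wd a0 * wd a1) * wd a2 := by rw [f1]
          _ = ((wd z3)⁻¹ * wd a0) * (wd a1 * wd a2) := by group
          _ = (wd a0 * (wd z3)⁻¹) * (wd a1 * wd a2) := by rw [f4]
          _ = wd a0 * ((wd z3)⁻¹ * (wd a1 * wd a2)) := by group
          _ = (wd a0 * wd a2) * wd a1 := f3.symm
      rintro x (rfl | rfl | rfl | rfl)
      · exact e10
      · rw [← mul_assoc, ← c02]
      · rw [mul_assoc, ← c02]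
      · rw [← mul_assoc, hza, mul_assoc, z2, mul_assoc]) m3v
  have hcomm4 : ∀ x ∈ closure ({wd a3, wd a1, wd a2, wd a0, wd z3} : Set G1),
      ∀ y ∈ closure ({wd a3, wd a1, wd a2, wd a0, wd z3} : Set G1), ⁅x, y⁆ ∈ zpowers (wd z3) := by
    have hle : ⁅closure ({wd a3, wd a1, wd a2, wd a0, wd z3} : Set G1),
        closure ({wd a3, wd a1, wd a2, wd a0, wd z3} : Set G1)⁆ ≤ zpowers (wd z3) := by
      apply Cfsg.Agent.H48.Crit.commutator_le_of_gen
      · have hz : ∀ x : G1, wd z3 * x = x * wd z3 → ∀ c ∈ zpowers (wd z3), x * c * x⁻¹ ∈ zpowers (wd z3) := by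
          intro x hx c hc
          obtain ⟨n, rfl⟩ := mem_zpowers_iff.1 hc
          have h1 : Commute (wd z3 ^ n) x := Commute.zpow_left hx n
          rw [← h1.eq, mul_inv_cancel_right]
          exact hc
        rintro x (rfl | rfl | rfl | rfl | rfl)
        · exact hz _ z3'
        · exact hz _ z1
        · exact hz _ z2
        · exact hz _ hza
        · exact hz _ rfl
      · have mz : wd z3 ∈ zpowers (wd z3) := mem_zpowers _
        have mc : ∀ x y : G1, x * y = y * x → ⁅x, y⁆ ∈ zpowers (wd z3) := by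
          intro x y h
          rw [commutatorElement_eq_one_iff_mul_comm.2 h]; exact one_mem _
        have mi : ∀ x y : G1, ⁅x, y⁆ = wd z3 → ⁅y, x⁆ ∈ zpowers (wd z3) := by
          intro x y h
          rw [← commutatorElement_inv, h]; exact inv_mem mz
        have md : ∀ x y : G1, ⁅x, y⁆ = wd z3 → ⁅x, y⁆ ∈ zpowers (wd z3) := by
          intro x y h
          rw [h]; exact mz
        rintro x (rfl | rfl | rfl | rfl | rfl) y (rfl | rfl | rfl | rfl | rfl)
        · exact mc _ _ rfl
        · exact mc _ _ c13.symm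
        · exact mi _ _ c23
        · exact mc _ _ c03.symm
        · exact mc _ _ z3'.symm
        · exact mc _ _ c13
        · exact mc _ _ rfl
        · exact md _ _ c12
        · exact mi _ _ hzz
        · exact mc _ _ z1.symm
        · exact md _ _ c23
        · exact mi _ _ c12
        · exact mc _ _ rfl
        · exact mc _ _ c02.symm
        · exact mc _ _ z2.symm
        · exact mc _ _ c03
        · exact md _ _ hzz
        · exact mc _ _ c02
        · exact mc _ _ rfl
        · exact mc _ _ hza.symm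
        · exact mc _ _ z3'
        · exact mc _ _ z1
        · exact mc _ _ z2
        · exact mc _ _ hza
        · exact mc _ _ rfl
    intro x hx y hy
    exact hle (commutator_mem_commutator hx hy)
  have s5 := step (b := wd u3) (by norm_num) s4
    (by
      obtain ⟨w0, w1, w2, w3, w4⟩ := hgen (closure ({wd a3, wd a1, wd a2, wd a0, wd z3} : Set G1))
        (subset_closure (by simp)) (subset_closure (by simp)) (subset_closure (by simp)) (subset_closure (by simp))
        (subset_closure (by simp))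
      rintro x (rfl | rfl | rfl | rfl | rfl)
      · exact w3
      · exact w1
      · exact w2
      · exact w0
      · exact w4) hu3
    (by
      intro hm
      apply muc
      have h1 := hcomm4 _ hm _ (subset_closure (show wd a0 ∈ _ by simp))
      obtain ⟨n, hn⟩ := mem_zpowers_iff.1 h1
      rw [← hn]
      exact (Commute.zpow_left (show Commute (wd z3) (wd a0) from hza) n))

  -- the subgroups
  have : Fact (Nat.Prime 3) := ⟨Nat.prime_three⟩
  obtain ⟨Q, hQdef⟩ : ∃ Q : Subgroup G1, Q = closure ({wd a3, wd a1, wd a2, wd a0, wd z3} : Set G1) := ⟨_, rfl⟩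
  obtain ⟨T', hTdef⟩ : ∃ T' : Subgroup G1, T' = closure (insert (wd u3) ({wd a3, wd a1, wd a2, wd a0, wd z3} : Set G1)) :=
    ⟨_, rfl⟩
  rw [← hQdef] at s4 hcomm4
  rw [← hTdef] at s5
  have hQT' : Q ≤ T' := by
    rw [hQdef, hTdef]
    exact closure_mono (Set.subset_insert _ _)
  have mQ3 : wd a3 ∈ Q := by rw [hQdef]; exact subset_closure (by simp)
  have mQ1 : wd a1 ∈ Q := by rw [hQdef]; exact subset_closure (by simp)
  have mQ2 : wd a2 ∈ Q := by rw [hQdef]; exact subset_closure (by simp)
  have mQ0 : wd a0 ∈ Q := by rw [hQdef]; exact subset_closure (by simp)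
  have mQz : wd z3 ∈ Q := by rw [hQdef]; exact subset_closure (by simp)
  have mTu : wd u3 ∈ T' := by rw [hTdef]; exact subset_closure (by simp)
  have huQ : wd u3 ∉ Q := by
    intro hm
    apply muc
    have h1 := hcomm4 _ hm _ mQ0
    obtain ⟨n, hn⟩ := mem_zpowers_iff.1 h1
    rw [← hn]
    exact (Commute.zpow_left (show Commute (wd z3) (wd a0) from hza) n)
  obtain ⟨T, hT'⟩ := s5.1.exists_le_sylow
  have hTc : Nat.card T = 3 ^ 6 := by
    obtain ⟨k, hk⟩ := IsPGroup.iff_card.1 T.isPGroup'
    have h1 : 3 ^ 6 ∣ Nat.card T := s5.2.trans (Subgroup.card_dvd_of_le hT')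
    have h2 : Nat.card T ∣ Nat.card G1 := Subgroup.card_subgroup_dvd_card _
    rw [hk] at h1 h2 ⊢
    have h3 : 6 ≤ k := (Nat.pow_dvd_pow_iff_le_right (by norm_num)).1 h1
    by_contra hne
    have h4 : 7 ≤ k := by
      by_contra h5
      exact hne (by rw [show k = 6 by omega])
    have h5 : 3 ^ 7 ∣ Nat.card G1 := (pow_dvd_pow 3 h4).trans h2
    rw [card_G1] at h5
    norm_num at h5
  have hTT : T' = (T : Subgroup G1) := by
    apply Subgroup.eq_of_le_of_card_ge hT'
    change Nat.card T ≤ _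
    rw [hTc]
    exact Nat.le_of_dvd Nat.card_pos s5.2
  have hQc : Nat.card Q = 3 ^ 5 := by
    obtain ⟨k, hk⟩ := IsPGroup.iff_card.1 s4.1
    have h1 := s4.2
    have h2 : Nat.card Q < Nat.card T' := by
      rcases lt_or_ge (Nat.card Q) (Nat.card T') with h | h
      · exact h
      · exfalso
        apply huQ
        rw [Subgroup.eq_of_le_of_card_ge hQT' h]
        exact mTu
    have h3 : Nat.card T' = 3 ^ 6 := by
      rw [hTT]
      exact hTc
    rw [h3] at h2
    rw [hk] at h1 h2 ⊢
    have h4 : 5 ≤ k := (Nat.pow_dvd_pow_iff_le_right (by norm_num)).1 h1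
    have h5 : k < 6 := (Nat.pow_lt_pow_iff_right (by norm_num)).1 h2
    rw [show k = 5 by omega]
  have hTz : (T : Subgroup G1) ≤ centralizer ({wd z3} : Set G1) := by
    rw [← hTT, hTdef, closure_le]
    rintro x (rfl | rfl | rfl | rfl | rfl | rfl)
    · exact mem_centralizer_singleton_iff.2 hzu.symm
    · exact mem_centralizer_singleton_iff.2 z3'.symm
    · exact mem_centralizer_singleton_iff.2 z1.symm
    · exact mem_centralizer_singleton_iff.2 z2.symm
    · exact mem_centralizer_singleton_iff.2 hza.symm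
    · exact mem_centralizer_singleton_iff.2 rfl
  have m4 : wd a4 ∈ Q := by
    rw [ua4]
    repeat' first | assumption | apply mul_mem
  have htQ : ∀ x ∈ Q, wd t3 * x * (wd t3)⁻¹ ∈ Q := by
    have h1 : Q.map (MulAut.conj (wd t3)).toMonoidHom ≤ Q := by
      conv_lhs => rw [hQdef]
      rw [MonoidHom.map_closure, closure_le]
      rintro _ ⟨w, (rfl | rfl | rfl | rfl | rfl), rfl⟩
      · change wd t3 * wd a3 * (wd t3)⁻¹ ∈ Q
        rw [← wd_cj]
        exact m4
      · change wd t3 * wd a1 * (wd t3)⁻¹ ∈ Q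
        rw [← wd_cj]
        exact mQ2
      · change wd t3 * wd a2 * (wd t3)⁻¹ ∈ Q
        rw [← wd_cj]
        exact mQ3
      · change wd t3 * wd a0 * (wd t3)⁻¹ ∈ Q
        rw [← wd_cj]
        exact mQ1
      · change wd t3 * wd z3 * (wd t3)⁻¹ ∈ Q
        rw [← hzt, mul_inv_cancel_right]
        exact mQz
    intro x hx
    exact h1 ⟨x, hx, rfl⟩
  refine rowB_star (T := T) (Q := Q) (z := wd z3) (u := wd u3) (t := wd t3) (a := wd a0) (b := wd a1)
    (orderOf_eq_prime hz3 hz1) mQz (hQT'.trans hT') hTz hQc hTc (hT' mTu) ht5 hzt.symm htQ mQ0 ?_ mQ1 m01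
    (fun x hx => hcomm4 x hx _ mQ0) muc
  intro h1
  apply m01
  have h2 : wd a1 = wd a0 := by
    have e : wd a1 = wd t3 * wd a0 * (wd t3)⁻¹ := wd_cj _ _
    rw [e, h1, mul_inv_cancel_right]
  rw [h2]

end McL

universe u

/-- **`McL`** -/
theorem rowB_mcl {K : Type u} [Group K] [Finite K] (h : Spor.IsoMcL K) : RowB 3 K := by
  have : Fact (Nat.Prime 3) := ⟨Nat.prime_three⟩
  obtain ⟨e⟩ := h
  obtain ⟨e'⟩ := Cfsg.Agent.McLType.X275.isoMcL_G1
  exact rowB_G1.congr (e'.trans e.symm)

end Cfsg.Agent.H538.PU
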